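import Cfsg.Agent.Lib.DCE.Orb

/-!
# Actions on finite invariant sets, and covers of simple groups in a centraliser
-/

set_option autoImplicit false

namespace Cfsg.Agent.Lib.DCE.Restrict

open Cfsg.Agent.Lib.TC.Core Cfsg.Agent.Lib.TC.Perm Cfsg.Agent.Lib.DCE.Orb

section restrict

variable {G V : Type*} [Group G] [Finite G]

/-- The action of a subgroup generated by elements which permute a finite set. -/
theorem exists_restrict (ψ : G →* Equiv.Perm V) (gens : Set G) {m : ℕ} (Ω : Fin m → V)
    (hinj : Function.Injective Ω) (hclosed : ∀ g ∈ gens, ∀ i, ∃ j, ψ g (Ω i) = Ω j) :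
    ∃ φ : Subgroup.closure gens →* Equiv.Perm (Fin m), ∀ (g : Subgroup.closure gens) (i : Fin m),
      Ω (φ g i) = ψ g.1 (Ω i) := by
  classical
  have hpow : ∀ g : G, (∀ i, ∃ j, ψ g (Ω i) = Ω j) → ∀ n : ℕ, ∀ i, ∃ j, ψ (g ^ n) (Ω i) = Ω j := by
    intro g hg n
    induction n with
    | zero => intro i; exact ⟨i, by simp⟩
    | succ n ih =>
      intro i
      obtain ⟨j, hj⟩ := hg i
      obtain ⟨k, hk⟩ := ih j
      refine ⟨k, ?_⟩
      rw [pow_succ, map_mul, Equiv.Perm.mul_apply, hj, hk]
  have hall : ∀ g ∈ Subgroup.closure gens, ∀ i, ∃ j, ψ g (Ω i) = Ω j := by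
    intro g hg
    induction hg using Subgroup.closure_induction with
    | mem x hx => exact hclosed x hx
    | one => intro i; exact ⟨i, by simp⟩
    | mul x y _ _ hx hy =>
      intro i
      obtain ⟨j, hj⟩ := hy i
      obtain ⟨k, hk⟩ := hx j
      refine ⟨k, ?_⟩
      rw [map_mul, Equiv.Perm.mul_apply, hj, hk]
    | inv x _ hx =>
      have h1 : x⁻¹ = x ^ (orderOf x - 1) := by
        have h2 : x ^ (orderOf x - 1) * x = 1 := by
          rw [← pow_succ, Nat.sub_add_cancel (orderOf_pos x), pow_orderOf_eq_one]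
        exact (eq_inv_of_mul_eq_one_left h2).symm
      rw [h1]
      exact hpow x hx _
  have hex : ∀ (g : Subgroup.closure gens) (i : Fin m), ∃ j, ψ g.1 (Ω i) = Ω j := fun g i => hall g.1 g.2 i
  choose f hf using hex
  have hfinj : ∀ g, Function.Injective (f g) := by
    intro g a b hab
    apply hinj
    apply (ψ g.1).injective
    rw [hf, hf, hab]
  let F : Subgroup.closure gens → Equiv.Perm (Fin m) := fun g =>
    Equiv.ofBijective (f g) (Finite.injective_iff_bijective.1 (hfinj g))
  have hF : ∀ g i, F g i = f g i := fun _ _ => rfl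
  refine ⟨MonoidHom.mk' F ?_, ?_⟩
  · intro a b
    ext i
    congr 1
    apply hinj
    rw [Equiv.Perm.mul_apply, hF, hF, hF, ← hf, ← hf, ← hf]
    change ψ (a.1 * b.1) (Ω i) = ψ a.1 (ψ b.1 (Ω i))
    rw [map_mul, Equiv.Perm.mul_apply]
  · intro g i
    change Ω (f g i) = _
    rw [hf]

end restrict

section forest

variable {Γ : Type*} [Group Γ] {P : PT}

/-- Every point is an image of the representative of its label. -/
theorem forest_conn (E : ℕ → Γ) (φ : Γ →* Equiv.Perm (Fin P.n)) {ts : List (List ℕ)}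
    (hval : ∀ l ∈ ts, ∀ i : Fin P.n, (φ (prodA E l) i).1 = P.val l i.1)
    {lab oP oW oD repr : ℕ → ℕ} (hlab : P.orbRange ts lab oP oW oD repr 0 P.n = true) (i : Fin P.n) :
    ∃ g ∈ Subgroup.closure ((fun l => prodA E l) '' {l | l ∈ ts}), ∃ r : Fin P.n, r.1 = repr (lab i.1) ∧ φ g r = i := by
  have key : ∀ d (m : Fin P.n), oD m.1 = d →
      ∃ g ∈ Subgroup.closure ((fun l => prodA E l) '' {l | l ∈ ts}), ∃ r : Fin P.n, r.1 = repr (lab m.1) ∧ φ g r = m := by
    intro d
    induction d using Nat.strong_induction_on with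
    | _ d ih =>
      intro m hd
      rcases (orb_spec hlab m).2 with ⟨_, h3⟩ | ⟨hoPn, h3, h4, h5⟩
      · exact ⟨1, Subgroup.one_mem _, m, h3.symm, by simp⟩
      · have hmem : ts.getD (oW m.1) [] ∈ ts := by
          by_cases hi : oW m.1 < ts.length
          · rw [List.getD_eq_getElem _ _ hi]
            exact List.getElem_mem hi
          · rw [List.getD_eq_default _ _ (by omega)] at h5
            have h6 : oP m.1 = m.1 := h5
            rw [h6] at h3
            omega
        obtain ⟨g, hg, r, hr, e⟩ := ih (oD (oP m.1)) (by omega) ⟨oP m.1, hoPn⟩ rfl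
        refine ⟨prodA E (ts.getD (oW m.1) []) * g,
          Subgroup.mul_mem _ (Subgroup.subset_closure ⟨_, hmem, rfl⟩) hg, r, ?_, ?_⟩
        · rw [hr]
          change repr (lab (oP m.1)) = _
          rw [h4]
        · rw [map_mul, Equiv.Perm.mul_apply, e]
          apply Fin.ext
          rw [hval _ hmem]
          exact h5
  exact key _ i rfl

/-- Points with the same label are in an orbit. -/
theorem forest_conn2 (E : ℕ → Γ) (φ : Γ →* Equiv.Perm (Fin P.n)) {ts : List (List ℕ)}
    (hval : ∀ l ∈ ts, ∀ i : Fin P.n, (φ (prodA E l) i).1 = P.val l i.1)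
    {lab oP oW oD repr : ℕ → ℕ} (hlab : P.orbRange ts lab oP oW oD repr 0 P.n = true) (i j : Fin P.n)
    (hij : lab i.1 = lab j.1) :
    ∃ g ∈ Subgroup.closure ((fun l => prodA E l) '' {l | l ∈ ts}), φ g i = j := by
  obtain ⟨g1, hg1, r1, hr1, e1⟩ := forest_conn E φ hval hlab i
  obtain ⟨g2, hg2, r2, hr2, e2⟩ := forest_conn E φ hval hlab j
  have hr : r1 = r2 := by
    apply Fin.ext
    rw [hr1, hr2, hij]
  subst hr
  refine ⟨g2 * g1⁻¹, Subgroup.mul_mem _ hg2 (Subgroup.inv_mem _ hg1), ?_⟩
  rw [map_mul, map_inv, Equiv.Perm.mul_apply, ← e1]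
  simpa using e2

end forest

section final

variable {C H : Type*} [Group C] [Finite C] [Group H]

/-- A central cover of a simple group. -/
theorem final_cover_aux (xC : C) (hxcen : xC ∈ Subgroup.center C) (hoxC : orderOf xC = 3) (Φ : C →* H) (N : ℕ)
    (hsimple : IsSimpleGroup Φ.range) (hN : Nat.card Φ.range = N) (hNp : ¬ N.Prime)
    (hker : Nat.card Φ.ker = 3) :
    Nat.card (Subgroup.center C) = 3 ∧ IsSimpleGroup (C ⧸ Subgroup.center C) ∧
      Nat.card (C ⧸ Subgroup.center C) = N := by
  classical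
  have hcR : Subgroup.center Φ.range = ⊥ := by
    rcases hsimple.eq_bot_or_eq_top_of_normal (Subgroup.center Φ.range) inferInstance with h | h
    · exact h
    · exfalso
      have hcomm : ∀ a b : Φ.range, a * b = b * a := by
        intro a b
        have : a ∈ Subgroup.center Φ.range := by
          rw [h]
          trivial
        exact (Subgroup.mem_center_iff.1 this b).symm
      letI : CommGroup Φ.range := { (inferInstance : Group Φ.range) with mul_comm := hcomm }
      have hp : (Nat.card Φ.range).Prime := IsSimpleGroup.prime_card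
      rw [hN] at hp
      exact hNp hp
  have hle : Subgroup.center C ≤ Φ.ker := by
    intro c hc
    have h1 : Φ.rangeRestrict c ∈ Subgroup.center Φ.range := by
      rw [Subgroup.mem_center_iff]
      intro y
      obtain ⟨c', rfl⟩ := Φ.rangeRestrict_surjective y
      rw [← map_mul, ← map_mul, (Subgroup.mem_center_iff.1 hc c')]
    rw [hcR, Subgroup.mem_bot] at h1
    have h2 := congrArg Subtype.val h1
    exact h2
  have h3 : 3 ≤ Nat.card (Subgroup.center C) := by
    have h4 := Subgroup.card_le_of_le ((Subgroup.zpowers_le).2 hxcen)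
    rwa [Nat.card_zpowers, hoxC] at h4
  have heq : Subgroup.center C = Φ.ker :=
    Subgroup.eq_of_le_of_card_ge hle (by rw [hker]; exact h3)
  have e : C ⧸ Subgroup.center C ≃* Φ.range :=
    (QuotientGroup.quotientMulEquivOfEq heq).trans (QuotientGroup.quotientKerEquivRange Φ)
  refine ⟨by rw [heq]; exact hker, e.isSimpleGroup, ?_⟩
  rw [Nat.card_congr e.toEquiv, hN]

variable {G : Type*} [Group G] [Finite G]

/-- A cover of a simple group in a centraliser. -/
theorem final_cover (x : G) (hx : orderOf x = 3) (Φ : Subgroup.centralizer ({x} : Set G) →* H) (N : ℕ)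
    (hsimple : IsSimpleGroup Φ.range) (hN : Nat.card Φ.range = N) (hNp : ¬ N.Prime)
    (hker : Nat.card Φ.ker = 3) :
    Nat.card (Subgroup.center (Subgroup.centralizer ({x} : Set G))) = 3 ∧
      IsSimpleGroup ((Subgroup.centralizer ({x} : Set G)) ⧸ Subgroup.center (Subgroup.centralizer ({x} : Set G))) ∧
      Nat.card ((Subgroup.centralizer ({x} : Set G)) ⧸ Subgroup.center (Subgroup.centralizer ({x} : Set G))) = N := by
  have hxC : x ∈ Subgroup.centralizer ({x} : Set G) := by
    rw [Subgroup.mem_centralizer_iff]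
    intro h hh
    rw [Set.mem_singleton_iff] at hh
    rw [hh]
  have hxcen : (⟨x, hxC⟩ : Subgroup.centralizer ({x} : Set G)) ∈ Subgroup.center (Subgroup.centralizer ({x} : Set G)) := by
    rw [Subgroup.mem_center_iff]
    rintro ⟨c, hc⟩
    apply Subtype.ext
    exact ((Subgroup.mem_centralizer_iff.1 hc) x rfl).symm
  have hoxC : orderOf (⟨x, hxC⟩ : Subgroup.centralizer ({x} : Set G)) = 3 := by
    rw [← hx]
    exact Subgroup.orderOf_mk x hxC
  exact final_cover_aux _ hxcen hoxC Φ N hsimple hN hNp hker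

end final

end Cfsg.Agent.Lib.DCE.Restrict
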